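import Cfsg.Agent.H21.UniqueSubgroup
import Cfsg.Agent.H83.QuaternionSFour
import Cfsg.Agent.S5112

/-!
Automorphisms of a `2`-group with a single involution.
-/

set_option autoImplicit false

namespace Cfsg.Agent.H83.CoreKilling

open Subgroup

theorem card_center_q8 : Nat.card ↥(center (QuaternionGroup 2)) = 2 := by
  rw [Nat.card_eq_fintype_card]
  decide

/-- A `2`-group with a single involution has a `2`-group of automorphisms, unless it is `Q₈`. -/
theorem aut_of_unique_involution {Q : Type*} [Group Q] [Finite Q] (hQ : IsPGroup 2 Q)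
    (huniq : ∀ x y : Q, orderOf x = 2 → orderOf y = 2 → x = y) :
    IsPGroup 2 (MulAut Q) ∨ (Nat.card Q = 8 ∧ Nat.card (MulAut Q) = 24 ∧ Nat.card (center Q) = 2) := by
  haveI : Fact (Nat.Prime 2) := ⟨Nat.prime_two⟩
  have hgen : ∀ H : Subgroup Q, Nat.card H = 2 → ∃ x : Q, orderOf x = 2 ∧ H = zpowers x := by
    intro H hH
    obtain ⟨x, hx⟩ := exists_prime_orderOf_dvd_card' (G := ↥H) 2 (by rw [hH])
    refine ⟨x, by rwa [Subgroup.orderOf_coe], (Subgroup.eq_of_le_of_card_ge (zpowers_le.mpr x.2) ?_).symm⟩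
    rw [Nat.card_zpowers, Subgroup.orderOf_coe, hx, hH]
  have hsub : ∀ H K : Subgroup Q, Nat.card H = 2 → Nat.card K = 2 → H = K := by
    intro H K hH hK
    obtain ⟨x, hx, rfl⟩ := hgen H hH
    obtain ⟨y, hy, rfl⟩ := hgen K hK
    rw [huniq x y hx hy]
  rcases H21.cyclic_or_quaternion 2 hQ hsub with hc | ⟨-, n, ⟨e⟩⟩
  · left
    obtain ⟨k, hk⟩ := IsPGroup.iff_card.mp hQ
    refine IsPGroup.iff_card.mpr ⟨k - 1, ?_⟩
    rw [IsCyclic.card_mulAut, hk]
    rcases Nat.eq_zero_or_pos k with rfl | h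
    · simp
    · rw [Nat.totient_prime_pow Nat.prime_two h, show 2 - 1 = 1 from rfl, mul_one]
  · haveI : NeZero (2 ^ n) := ⟨(Nat.two_pow_pos n).ne'⟩
    by_cases h8 : n = 1
    · right
      subst h8
      refine ⟨by rw [Nat.card_congr e.toEquiv, Nat.card_eq_fintype_card, QuaternionGroup.card]; norm_num, ?_, ?_⟩
      swap
      · rw [Nat.card_congr (Subgroup.centerCongr e).toEquiv]
        show Nat.card ↥(center (QuaternionGroup 2)) = 2
        exact card_center_q8
      obtain ⟨f⟩ := H83.aut_q8_equiv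
      rw [Nat.card_congr (MulAut.congr e).toEquiv]
      show Nat.card (MulAut (QuaternionGroup 2)) = 24
      rw [Nat.card_congr f.toEquiv, Nat.card_perm, Nat.card_fin]
      rfl
    left
    rcases Nat.eq_zero_or_pos n with rfl | hn
    · haveI : IsCyclic (QuaternionGroup (2 ^ 0)) := QuaternionGroup.quaternionGroup_one_isCyclic
      refine IsPGroup.of_equiv (IsPGroup.iff_card.mpr ⟨1, ?_⟩) (MulAut.congr e).symm
      rw [IsCyclic.card_mulAut, Nat.card_eq_fintype_card, QuaternionGroup.card]
      decide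
    refine IsPGroup.of_equiv (S5112.isPGroup_mulAut (hQ.of_equiv e) (QuaternionGroup.a 1) ?_ ?_)
      (MulAut.congr e).symm
    · rw [Nat.card_zpowers, QuaternionGroup.orderOf_a_one, Nat.card_eq_fintype_card, QuaternionGroup.card]
      ring
    · intro x hx
      cases x with
      | a i =>
        exact absurd (mem_zpowers_iff.mpr ⟨(i.val : ℤ), by
          rw [zpow_natCast, QuaternionGroup.a_one_pow, ZMod.natCast_zmod_val]⟩) hx
      | xa i =>
        rw [QuaternionGroup.orderOf_xa, QuaternionGroup.orderOf_a_one]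
        have : 2 ^ 2 ≤ 2 ^ n := Nat.pow_le_pow_right (by norm_num) (by omega)
        omega

end Cfsg.Agent.H83.CoreKilling
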