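import Cfsg.Agent.H51.ConstrainedCores
import Cfsg.Agent.H51.ConnectedSignalizer
import Cfsg.Agent.H28.StronglyEmbedded
import Cfsg.Agent.H29.FourGroup
import Cfsg.Agent.S0217
import Cfsg.Agent.H16.CharTwo
import Cfsg.Agent.H83.CoreKilling.RankOne

/-!
Constrained involution centralisers, a four-connected Sylow `2`-subgroup of rank at least three and
no odd core force all cores of involution centralisers to be trivial, given that the core of a
strongly embedded subgroup lies in the core of the group.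
-/

set_option autoImplicit false
set_option linter.style.haveILetI false

namespace Cfsg.Agent.H83.CoreKilling

open Subgroup Cfsg

variable {G : Type*} [Group G]

local notation "θ" => centralizerPPrimeCore 2

/-- The standing hypotheses. -/
structure Hyp (S : Sylow 2 G) : Prop where
  conn : IsFourConnected (S : Subgroup G)
  rank : ¬ PRankLE 2 2 G
  cons : ∀ t : G, orderOf t = 2 → IsPConstrained 2 ↥(centralizer ({t} : Set G))
  solv : ∀ X : Subgroup G, Odd (Nat.card ↥X) → Group.IsSolvable ↥X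

theorem elem_of_klein {U : Subgroup G} (hU : IsKleinFour U) : IsElementaryAbelian 2 U :=
  ⟨⟨⟨fun a b => Subtype.ext (H29.comm_of_mem_kleinFour a.2 b.2)⟩⟩,
    fun _ hx => H29.sq_eq_one_of_mem_kleinFour hx⟩

theorem klein_le_of_elem [Finite G] {A : Subgroup G} (hA : IsElementaryAbelian 2 A)
    (h4 : 4 ≤ Nat.card A) {u : G} (hu : u ∈ A) (hu1 : u ≠ 1) :
    ∃ U : Subgroup G, U ≤ A ∧ IsKleinFour U ∧ u ∈ U := by
  obtain ⟨v, hv, hv1, hvu⟩ := H29.exists_mem_ne_ne (A := A) (by omega) u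
  refine ⟨H29.fourSubgroup u v (hA.2 u hu) (hA.2 v hv) (H52.elem_comm hA hu hv), fun x hx => ?_,
    H29.isKleinFour_fourSubgroup hu1 hv1 (Ne.symm hvu), H29.mem_fourSubgroup.mpr (Or.inr (Or.inl rfl))⟩
  rcases H29.mem_fourSubgroup.mp hx with rfl | rfl | rfl | rfl
  exacts [A.one_mem, hu, hv, A.mul_mem hu hv]

theorem map_closure (g : G) (U : Subgroup G) :
    (signalizerClosure U θ).map (MulAut.conj g).toMonoidHom =
      signalizerClosure (U.map (MulAut.conj g).toMonoidHom) θ := by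
  rw [signalizerClosure, signalizerClosure, Subgroup.map_iSup]
  refine le_antisymm (iSup_le fun u => ?_) (iSup_le fun x => ?_)
  · refine le_iSup_of_le ⟨MulAut.conj g u, mem_map_of_mem _ u.2.1, ?_⟩
      (H51.centralizerPPrimeCore_map_aut 2 (MulAut.conj g) (u : G)).le
    simpa [MulAut.conj_apply] using u.2.2
  · obtain ⟨u, hu, he⟩ := x.2.1
    refine le_iSup_of_le ⟨u, hu, fun h => x.2.2 ?_⟩
      (le_of_eq ((congrArg θ he.symm).trans (H51.centralizerPPrimeCore_map_aut 2 (MulAut.conj g) u).symm))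
    rw [← he, h, map_one]

namespace Hyp

variable [Finite G] {S : Sylow 2 G} (H : Hyp S)
include H

theorem order_two {A : Subgroup G} (hA : IsElementaryAbelian 2 A) {a : G} (ha : a ∈ A) (ha1 : a ≠ 1) :
    orderOf a = 2 := by
  haveI : Fact (Nat.Prime 2) := ⟨Nat.prime_two⟩
  exact orderOf_eq_prime (hA.2 a ha) ha1

theorem bal {a b : G} (ha : orderOf a = 2) (hb : orderOf b = 2) (h : a * b = b * a) :
    θ a ⊓ centralizer ({b} : Set G) ≤ θ b := by
  haveI : Fact (Nat.Prime 2) := ⟨Nat.prime_two⟩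
  exact H51.core_inf_centralizer_le_of_pConstrained (H51.isPGroup_zpowers_of_orderOf ha) h (H.cons b hb)

theorem complete {A : Subgroup G} (hA : IsElementaryAbelian 2 A) (h8 : 2 ^ 3 ≤ Nat.card A) :
    Odd (Nat.card ↥(signalizerClosure A θ)) ∧
      ∀ a ∈ A, a ≠ 1 → signalizerClosure A θ ⊓ centralizer ({a} : Set G) = θ a := by
  haveI : Fact (Nat.Prime 2) := ⟨Nat.prime_two⟩
  have hodd : ∀ a : G, Odd (Nat.card ↥(θ a)) := fun a =>
    Nat.coprime_two_right.mp (H59.centralizerPPrimeCore_coprime 2 a)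
  obtain ⟨h1, h2⟩ := S0217.result A (fun a ha b hb => H52.elem_comm hA ha hb) hA.2 h8 θ
    (fun a _ _ => H59.centralizerPPrimeCore_le 2 a) (fun a _ _ => (hodd a).not_two_dvd_nat)
    (fun a ha _ b hb x hx => le_normalizer_iff.mp (H59.centralizer_le_normalizer_core 2 a) b
      (mem_centralizer_singleton_iff.mpr (H52.elem_comm hA hb ha)) x hx)
    (fun a _ _ => H.solv _ (hodd a))
    (fun a ha ha1 b hb hb1 => H.bal (H.order_two hA ha ha1) (H.order_two hA hb hb1) (H52.elem_comm hA ha hb))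
  exact ⟨Nat.odd_iff.mpr (Nat.two_dvd_ne_zero.mp h1), h2⟩

theorem normalizes {A : Subgroup G} (hA : IsElementaryAbelian 2 A) :
    A ≤ normalizer (signalizerClosure A θ : Set G) := by
  intro g hg
  have h1 : A.map (MulAut.conj g).toMonoidHom = A := mem_normalizer_iff_map_conj_eq.mp (le_normalizer hg)
  refine mem_normalizer_iff_map_conj_eq.mpr ((map_closure g A).trans ?_)
  rw [h1]

theorem closure_eq {A U : Subgroup G} (hA : IsElementaryAbelian 2 A) (h8 : 2 ^ 3 ≤ Nat.card A)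
    (hUA : U ≤ A) (hU : 4 ≤ Nat.card U) : signalizerClosure A θ = signalizerClosure U θ := by
  obtain ⟨hodd, hC⟩ := H.complete hA h8
  refine le_antisymm ?_ (iSup_le fun u =>
    le_iSup (fun a : {a : G // a ∈ A ∧ a ≠ 1} => θ (a : G)) ⟨u, hUA u.2.1, u.2.2⟩)
  refine H51.le_of_four_centralizers_le (H52.elem_mono hA hUA) hU (hUA.trans (H.normalizes hA)) hodd
    fun v hv hv1 => ?_
  rw [hC v (hUA hv) hv1]
  exact le_iSup (fun a : {a : G // a ∈ U ∧ a ≠ 1} => θ (a : G)) ⟨v, hv, hv1⟩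

theorem exists_eight_in_sylow :
    ∃ E : Subgroup G, E ≤ (S : Subgroup G) ∧ IsElementaryAbelian 2 E ∧ 2 ^ 3 ≤ Nat.card E := by
  haveI : Fact (Nat.Prime 2) := ⟨Nat.prime_two⟩
  have hr := H.rank
  simp only [PRankLE, not_forall, not_le] at hr
  obtain ⟨V, hVc, hV2, hV⟩ := hr
  have hVe : IsElementaryAbelian 2 V := ⟨hVc, hV2⟩
  obtain ⟨P, hP⟩ := (H52.elem_isPGroup (p := 2) hVe).exists_le_sylow
  obtain ⟨g, hg⟩ := MulAction.exists_smul_eq G P S
  refine ⟨V.map (MulAut.conj g).toMonoidHom, ?_, H34.isElementaryAbelian_map hVe _, ?_⟩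
  · rw [← hg]
    exact map_mono hP
  · rw [card_map_of_injective (MulAut.conj g).injective]
    exact H51.two_pow_le_card_of_lt hVe hV

/-- The relation of commuting four-groups. -/
def Adj (A B : Subgroup G) : Prop :=
  IsKleinFour A ∧ IsKleinFour B ∧ ∀ a ∈ A, ∀ b ∈ B, a * b = b * a

theorem chain {U V : Subgroup G} (hU : IsKleinFour U) (hV : IsKleinFour V)
    (hUS : U ≤ (S : Subgroup G)) (hVS : V ≤ (S : Subgroup G)) :
    Relation.ReflTransGen
      (fun A B : Subgroup G => (IsKleinFour A ∧ IsKleinFour B ∧ ∀ a ∈ A, ∀ b ∈ B, a * b = b * a) ∧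
        A ≤ (S : Subgroup G) ∧ B ≤ (S : Subgroup G)) U V := by
  have := (H.conn _ _ (H29.isKleinFour_subgroupOf hUS hU) (H29.isKleinFour_subgroupOf hVS hV)).lift
    (fun W => W.map (S : Subgroup G).subtype)
    (p := fun A B : Subgroup G => (IsKleinFour A ∧ IsKleinFour B ∧ ∀ a ∈ A, ∀ b ∈ B, a * b = b * a) ∧
        A ≤ (S : Subgroup G) ∧ B ≤ (S : Subgroup G))
    (fun C D hCD => ⟨⟨H29.isKleinFour_map _ Subtype.val_injective hCD.1,
      H29.isKleinFour_map _ Subtype.val_injective hCD.2.1, fun a ha b hb => by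
        obtain ⟨a', ha', rfl⟩ := ha
        obtain ⟨b', hb', rfl⟩ := hb
        rw [← map_mul, ← map_mul, hCD.2.2 a' ha' b' hb']⟩, map_subtype_le C, map_subtype_le D⟩)
  simpa [Function.onFun, map_subgroupOf_eq_of_le hUS, map_subgroupOf_eq_of_le hVS] using this

theorem eight_of_adj {A B : Subgroup G} (hA : IsKleinFour A) (hB : IsKleinFour B)
    (h : ∀ a ∈ A, ∀ b ∈ B, a * b = b * a) (hne : A ≠ B) :
    IsElementaryAbelian 2 (A ⊔ B) ∧ 2 ^ 3 ≤ Nat.card ↥(A ⊔ B) := by
  haveI : Fact (Nat.Prime 2) := ⟨Nat.prime_two⟩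
  have he : IsElementaryAbelian 2 (A ⊔ B) := H51.elem_sup (elem_of_klein hA) (elem_of_klein hB) h
  refine ⟨he, H51.two_pow_le_card_of_lt (k := 2) he ?_⟩
  by_contra hlt
  refine hne ((eq_of_le_of_card_ge (le_sup_left : A ≤ A ⊔ B) ?_).trans
    (eq_of_le_of_card_ge (le_sup_right : B ≤ A ⊔ B) ?_).symm)
  · rw [hA.card_four]; omega
  · rw [hB.card_four]; omega

theorem klein_in_eight {U : Subgroup G} (hU : IsKleinFour U) (hUS : U ≤ (S : Subgroup G)) :
    ∃ A : Subgroup G, A ≤ (S : Subgroup G) ∧ IsElementaryAbelian 2 A ∧ 2 ^ 3 ≤ Nat.card A ∧ U ≤ A := by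
  obtain ⟨E, hES, hE, hE8⟩ := H.exists_eight_in_sylow
  obtain ⟨e, he, he1⟩ := H29.exists_ne_one_of_one_lt_card (A := E) (by omega)
  obtain ⟨V, hVE, hV, -⟩ := klein_le_of_elem hE (by omega) he he1
  have hc := H.chain hU hV hUS (hVE.trans hES)
  revert hU hUS
  induction hc using Relation.ReflTransGen.head_induction_on with
  | refl => intro _ _; exact ⟨E, hES, hE, hE8, hVE⟩
  | @head A B hAB _ ih =>
    intro hA hAS
    by_cases hAB' : A = B
    · subst hAB'; exact ih hA hAS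
    · obtain ⟨he, h8⟩ := H.eight_of_adj hA hAB.1.2.1 hAB.1.2.2 hAB'
      exact ⟨A ⊔ B, sup_le hAS hAB.2.2, he, h8, le_sup_left⟩

/-- All four-groups of the Sylow subgroup give the same closure. -/
theorem closure_const {U V : Subgroup G} (hU : IsKleinFour U) (hV : IsKleinFour V)
    (hUS : U ≤ (S : Subgroup G)) (hVS : V ≤ (S : Subgroup G)) :
    signalizerClosure U θ = signalizerClosure V θ := by
  have hc := H.chain hU hV hUS hVS
  clear hV hVS
  induction hc with
  | refl => rfl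
  | @tail A B _ hAB ih =>
    rw [ih]
    by_cases hAB' : A = B
    · rw [hAB']
    · obtain ⟨he, h8⟩ := H.eight_of_adj hAB.1.1 hAB.1.2.1 hAB.1.2.2 hAB'
      rw [← H.closure_eq he h8 le_sup_left hAB.1.1.card_four.ge,
        ← H.closure_eq he h8 le_sup_right hAB.1.2.1.card_four.ge]

/-- The common closure, with its basic properties. -/
theorem exists_common : ∃ W : Subgroup G, Odd (Nat.card W) ∧
    (∀ U : Subgroup G, IsKleinFour U → U ≤ (S : Subgroup G) → signalizerClosure U θ = W) ∧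
    (∀ g : G, ∀ U : Subgroup G, IsKleinFour U → U ≤ (S : Subgroup G) →
      U.map (MulAut.conj g).toMonoidHom ≤ (S : Subgroup G) → g ∈ normalizer (W : Set G)) ∧
    (∀ t ∈ (S : Subgroup G), orderOf t = 2 →
      θ t ≤ W ∧ ∃ U A : Subgroup G, t ∈ U ∧ IsKleinFour U ∧ U ≤ A ∧ A ≤ (S : Subgroup G) ∧
        IsElementaryAbelian 2 A ∧ 2 ^ 3 ≤ Nat.card A) := by
  haveI : Fact (Nat.Prime 2) := ⟨Nat.prime_two⟩
  obtain ⟨E, hES, hE, hE8⟩ := H.exists_eight_in_sylow
  obtain ⟨e, he, he1⟩ := H29.exists_ne_one_of_one_lt_card (A := E) (by omega)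
  obtain ⟨U₀, hU₀E, hU₀, -⟩ := klein_le_of_elem hE (by omega) he he1
  have hall : ∀ U : Subgroup G, IsKleinFour U → U ≤ (S : Subgroup G) →
      signalizerClosure U θ = signalizerClosure U₀ θ :=
    fun U hU hUS => H.closure_const hU hU₀ hUS (hU₀E.trans hES)
  refine ⟨signalizerClosure U₀ θ, ?_, hall, fun g U hU hUS hgU => ?_, fun t ht ht2 => ?_⟩
  · rw [← H.closure_eq hE hE8 hU₀E hU₀.card_four.ge]
    exact (H.complete hE hE8).1
  · refine mem_normalizer_iff_map_conj_eq.mpr ?_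
    rw [← hall U hU hUS]
    exact (map_closure g U).trans
      ((hall _ (H29.isKleinFour_map _ (MulAut.conj g).injective hU) hgU).trans (hall U hU hUS).symm)
  · have ht1 : t ≠ 1 := fun h => by rw [h, orderOf_one] at ht2; omega
    -- an involution of `S` commuting with `t` and different from it
    obtain ⟨v, hvS, hv2, hv1, hvt, hcomm⟩ : ∃ v ∈ (S : Subgroup G), v ^ 2 = 1 ∧ v ≠ 1 ∧ v ≠ t ∧ t * v = v * t := by
      have hS2 : IsPGroup 2 ↥(S : Subgroup G) := S.isPGroup'
      have hne : (⊤ : Subgroup ↥(S : Subgroup G)) ≠ ⊥ := fun h => ht1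
        (congrArg Subtype.val (show (⟨t, ht⟩ : ↥(S : Subgroup G)) = 1 from
          Subgroup.mem_bot.mp (h ▸ mem_top _)))
      obtain ⟨z, hzc, -, hz1⟩ := H29.exists_mem_center_of_normal hS2 hne
      have hdvd : 2 ∣ orderOf z := by
        obtain ⟨k, hk⟩ := IsPGroup.iff_orderOf.mp hS2 z
        cases k with
        | zero => exact absurd (orderOf_eq_one_iff.mp (by simpa using hk)) hz1
        | succ j => rw [hk]; exact dvd_pow_self 2 (Nat.succ_ne_zero j)
      set y := z ^ (orderOf z / 2)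
      have hy2 : orderOf y = 2 := orderOf_pow_orderOf_div (orderOf_pos z).ne' hdvd
      have hyc : y ∈ center ↥(S : Subgroup G) := pow_mem hzc _
      by_cases hyt : (y : G) = t
      · obtain ⟨v, hv, hv1, hvt⟩ := H29.exists_mem_ne_ne (A := E) (by omega) t
        refine ⟨v, hES hv, hE.2 v hv, hv1, hvt, ?_⟩
        have := congrArg Subtype.val (mem_center_iff.mp hyc ⟨v, hES hv⟩)
        simp only [coe_mul, hyt] at this
        exact this.symm
      · refine ⟨y, y.2, ?_, ?_, hyt, ?_⟩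
        · have h := pow_orderOf_eq_one y
          rw [hy2] at h
          exact congrArg Subtype.val h
        · intro h
          rw [show y = 1 from Subtype.ext h, orderOf_one] at hy2; omega
        · exact congrArg Subtype.val (mem_center_iff.mp hyc ⟨t, ht⟩)
    set U := H29.fourSubgroup t v (by rw [← ht2, pow_orderOf_eq_one]) hv2 hcomm
    have hU : IsKleinFour U := H29.isKleinFour_fourSubgroup ht1 hv1 (Ne.symm hvt)
    have hUS : U ≤ (S : Subgroup G) := fun x hx => by
      rcases H29.mem_fourSubgroup.mp hx with rfl | rfl | rfl | rfl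
      exacts [one_mem _, ht, hvS, mul_mem ht hvS]
    have htU : t ∈ U := H29.mem_fourSubgroup.mpr (Or.inr (Or.inl rfl))
    obtain ⟨A, hAS, hA, hA8, hUA⟩ := H.klein_in_eight hU hUS
    refine ⟨?_, U, A, htU, hU, hUA, hAS, hA, hA8⟩
    rw [← hall U hU hUS]
    exact le_iSup (fun a : {a : G // a ∈ U ∧ a ≠ 1} => θ (a : G)) ⟨t, htU, ht1⟩

/-- All involution centralisers lie in the normaliser of the common closure. -/
theorem centralizer_le {W : Subgroup G}
    (hg : ∀ g : G, ∀ U : Subgroup G, IsKleinFour U → U ≤ (S : Subgroup G) →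
      U.map (MulAut.conj g).toMonoidHom ≤ (S : Subgroup G) → g ∈ normalizer (W : Set G))
    (hSN : (S : Subgroup G) ≤ normalizer (W : Set G)) {t : G} (ht2 : orderOf t = 2)
    {U A : Subgroup G} (htU : t ∈ U) (hU : IsKleinFour U) (hUA : U ≤ A) (hAS : A ≤ (S : Subgroup G))
    (hA : IsElementaryAbelian 2 A) (hA8 : 2 ^ 3 ≤ Nat.card A) (htW : θ t ≤ W) :
    centralizer ({t} : Set G) ≤ normalizer (W : Set G) := by
  haveI : Fact (Nat.Prime 2) := ⟨Nat.prime_two⟩
  set M := normalizer (W : Set G) with hM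
  set C := centralizer ({t} : Set G) with hC
  have hAC : A ≤ C := fun a ha => mem_centralizer_singleton_iff.mpr (H52.elem_comm hA ha (hUA htU))
  obtain ⟨P, hP⟩ := ((H52.elem_isPGroup (p := 2) hA).comap_subtype (K := C)).exists_le_sylow
  set P' : Subgroup G := (P : Subgroup ↥C).map C.subtype with hP'
  obtain ⟨R, hR⟩ := (P.isPGroup'.map C.subtype).exists_le_sylow
  obtain ⟨g, hgR⟩ := MulAction.exists_smul_eq G R S
  have hAP : A ≤ P' := fun a ha => ⟨⟨a, hAC ha⟩, hP (mem_subgroupOf.mpr ha), rfl⟩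
  have hgP : ∀ x ∈ P', g * x * g⁻¹ ∈ (S : Subgroup G) := fun x hx => by
    rw [← hgR]
    exact mem_map_of_mem _ (hR hx)
  have hgUS : U.map (MulAut.conj g).toMonoidHom ≤ (S : Subgroup G) := by
    rintro _ ⟨u, hu, rfl⟩
    exact hgP u (hAP (hUA hu))
  have hgM : g ∈ M := hg g U hU (hUA.trans hAS) hgUS
  have hPM : P' ≤ M := fun x hx => by
    have h := M.mul_mem (M.mul_mem (M.inv_mem hgM) (hSN (hgP x hx))) hgM
    rwa [show g⁻¹ * (g * x * g⁻¹) * g = x by group] at h
  have hfour : ∀ n : G, ∀ V : Subgroup G, IsKleinFour V → V ≤ P' →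
      V.map (MulAut.conj n).toMonoidHom ≤ P' → n ∈ M := by
    intro n V hV hVP hnV
    have h1 : V.map (MulAut.conj g).toMonoidHom ≤ (S : Subgroup G) := by
      rintro _ ⟨u, hu, rfl⟩; exact hgP u (hVP hu)
    have h2 : g * n * g⁻¹ ∈ M := by
      refine hg _ _ (H29.isKleinFour_map _ (MulAut.conj g).injective hV) h1 ?_
      rintro _ ⟨_, ⟨u, hu, rfl⟩, rfl⟩
      have h3 := hgP _ (hnV (mem_map_of_mem _ hu))
      simpa [mul_assoc] using h3
    have h := M.mul_mem (M.mul_mem (M.inv_mem hgM) h2) hgM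
    rwa [show g⁻¹ * (g * n * g⁻¹) * g = n by group] at h
  -- the constrained structure
  set O := pPrimeCore 2 ↥C with hO
  haveI : O.Normal := H51.pPrimeCore_normal 2 ↥C
  set q := QuotientGroup.mk' O with hq
  haveI := pCore_normal 2 (↥C ⧸ O)
  set Qb := pCore 2 (↥C ⧸ O) with hQb
  have hQb2 : IsPGroup 2 ↥Qb := H16.isPGroup_pCore
  have hcent : centralizer (Qb : Set (↥C ⧸ O)) ≤ Qb :=
    H51.isPConstrained_iff_centralizer_pCore_le.mp (H.cons t ht2)
  set K := Qb.comap q with hK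
  haveI : K.Normal := Normal.comap inferInstance q
  have hsurj : Function.Surjective q := QuotientGroup.mk'_surjective O
  set Q := (P : Subgroup ↥C) ⊓ K with hQ
  have hOM : ∀ o ∈ O, ((o : ↥C) : G) ∈ M := fun o ho => le_normalizer (htW (mem_map_of_mem _ ho))
  -- `P` maps onto a Sylow subgroup of the quotient, so `Q` maps onto `Qb`
  set Pq : Sylow 2 (↥C ⧸ O) := P.mapSurjective hsurj with hPq
  have hQbP : Qb ≤ (Pq : Subgroup (↥C ⧸ O)) := hQb2.le_sylow_of_normal Pq
  have hQmap : Q.map q = Qb := by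
    refine le_antisymm ((map_mono inf_le_right).trans (map_comap_le _ _)) fun y hy => ?_
    have hy' : y ∈ (P : Subgroup ↥C).map q := hQbP hy
    obtain ⟨x, hx, rfl⟩ := hy'
    exact ⟨x, ⟨hx, hy⟩, rfl⟩
  have hKQ : K = Q ⊔ O := by
    rw [hK, ← hQmap, comap_map_eq, QuotientGroup.ker_mk']
  have hQM : ∀ x ∈ Q, ((x : ↥C) : G) ∈ M := fun x hx => hPM (mem_map_of_mem _ hx.1)
  have hOMs : O ≤ M.subgroupOf C := fun o ho => mem_subgroupOf.mpr (hOM o ho)
  have hQMs : Q ≤ M.subgroupOf C := fun x hx => mem_subgroupOf.mpr (hQM x hx)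
  have hKM : K ≤ M.subgroupOf C := hKQ ▸ sup_le hQMs hOMs
  have hdisj : ∀ X : Subgroup ↥C, IsPGroup 2 ↥X → ∀ x ∈ X, q x = 1 → x = 1 := by
    intro X hX x hx hx1
    rw [hq, QuotientGroup.mk'_apply, QuotientGroup.eq_one_iff] at hx1
    exact Subgroup.mem_bot.mp
      ((H51.disjoint_of_pgroup_coprime hX (H51.pPrimeCore_coprime 2 ↥C)).le_bot ⟨hx, hx1⟩)
  suffices hN : normalizer (Q : Set ↥C) ≤ M.subgroupOf C by
    have hfr : normalizer (Q : Set ↥C) ⊔ K = ⊤ := by
      have hQK : Q ≤ K := inf_le_right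
      obtain ⟨Qs, hQs⟩ := ((P.isPGroup'.to_le (inf_le_left : Q ≤ _)).comap_subtype (K := K)).exists_le_sylow
      set R' : Subgroup ↥C := (Qs : Subgroup ↥K).map K.subtype with hR'
      have hQR : Q ≤ R' := fun x hx => ⟨⟨x, hx.2⟩, hQs (mem_subgroupOf.mpr hx), rfl⟩
      have hR2 : IsPGroup 2 ↥R' := Qs.isPGroup'.map _
      let f : ↥R' → ↥Qb := fun x => ⟨q x, map_subtype_le (Qs : Subgroup ↥K) x.2⟩
      have hf : Function.Injective f := by
        intro x y hxy
        have h : q ((x : ↥C)⁻¹ * y) = 1 := by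
          rw [map_mul, map_inv, inv_mul_eq_one]; exact congrArg Subtype.val hxy
        exact Subtype.ext (inv_mul_eq_one.mp (hdisj R' hR2 _ (mul_mem (inv_mem x.2) y.2) h))
      have hcard : Nat.card R' ≤ Nat.card Q := by
        refine (Nat.card_le_card_of_injective f hf).trans ?_
        rw [← hQmap]
        exact Nat.le_of_dvd Nat.card_pos (card_map_dvd _ _)
      have h := Sylow.normalizer_sup_eq_top Qs
      rwa [← hR', ← eq_of_le_of_card_ge hQR hcard] at h
    intro c hc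
    exact mem_subgroupOf.mp ((sup_le hN hKM) (hfr ▸ mem_top (⟨c, hc⟩ : ↥C)))
  intro n hn
  rw [mem_subgroupOf]
  by_cases hrk : ∃ V : Subgroup ↥C, IsKleinFour V ∧ V ≤ Q
  · obtain ⟨V, hV, hVQ⟩ := hrk
    refine hfour _ (V.map C.subtype) (H29.isKleinFour_map _ C.subtype_injective hV)
      (map_mono (hVQ.trans inf_le_left)) ?_
    rintro _ ⟨_, ⟨v, hv, rfl⟩, rfl⟩
    exact ⟨n * v * n⁻¹, ((mem_normalizer_iff.mp hn v).mp (hVQ hv)).1, by simp⟩
  -- `Q` has a single involution
  have hQp : IsPGroup 2 ↥Q := P.isPGroup'.to_le inf_le_left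
  let tc : ↥C := ⟨t, mem_centralizer_singleton_iff.mpr rfl⟩
  have htc : ∀ x : ↥C, x * tc = tc * x := fun x =>
    Subtype.ext (mem_centralizer_singleton_iff.mp x.2)
  have htc2 : orderOf tc = 2 := by rw [← Subgroup.orderOf_coe]; exact ht2
  have htQ : tc ∈ Q := by
    refine ⟨hP (mem_subgroupOf.mpr (hUA htU)), hcent ?_⟩
    rw [mem_centralizer_iff]
    intro y _
    obtain ⟨x, rfl⟩ := hsurj y
    rw [← map_mul, ← map_mul, htc]
  have huniq : ∀ x y : ↥Q, orderOf x = 2 → orderOf y = 2 → x = y := by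
    have key : ∀ x : ↥Q, orderOf x = 2 → (x : ↥C) = tc := by
      intro x hx
      by_contra hne
      have hx2 : (x : ↥C) ^ 2 = 1 := by rw [← SubmonoidClass.coe_pow, ← hx, pow_orderOf_eq_one]; rfl
      have hx1 : (x : ↥C) ≠ 1 := fun h => by
        rw [← Subgroup.orderOf_coe, h, orderOf_one] at hx; omega
      refine hrk ⟨_, H29.isKleinFour_fourSubgroup (hu := hx2)
        (hv := by rw [← htc2, pow_orderOf_eq_one]) (huv := htc x) hx1
        (fun h => by rw [h, orderOf_one] at htc2; omega) hne, fun z hz => ?_⟩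
      rcases H29.mem_fourSubgroup.mp hz with rfl | rfl | rfl | rfl
      exacts [one_mem _, x.2, htQ, mul_mem x.2 htQ]
    exact fun x y hx hy => Subtype.ext ((key x hx).trans (key y hy).symm)
  set N := normalizer (Q : Set ↥C) with hNdef
  have hker : ∀ m ∈ centralizer (Q : Set ↥C), m ∈ K := by
    intro m hm
    refine hcent ?_
    rw [mem_centralizer_iff]
    intro y hy
    rw [SetLike.mem_coe, ← hQmap] at hy
    obtain ⟨x, hx, rfl⟩ := hy
    rw [← map_mul, ← map_mul, mem_centralizer_iff.mp hm x hx]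
  let φ : ↥N →* MulAut ↥Q := Q.normalizerMonoidHom
  have hφ : φ.ker = (centralizer (Q : Set ↥C)).subgroupOf N := normalizerMonoidHom_ker Q
  rcases aut_of_unique_involution hQp huniq with hAut | ⟨hQ8, hAut, hZ⟩
  · -- the quotient is a 2-group
    have hC2 : IsPGroup 2 (↥C ⧸ O) := by
      have hQbij : Function.Bijective (fun x : ↥Q => (⟨q x, hQmap ▸ mem_map_of_mem q x.2⟩ : ↥Qb)) := by
        refine ⟨fun x y hxy => ?_, fun y => ?_⟩
        · have h : q ((x : ↥C)⁻¹ * y) = 1 := by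
            rw [map_mul, map_inv, inv_mul_eq_one]; exact congrArg Subtype.val hxy
          exact Subtype.ext (inv_mul_eq_one.mp (hdisj Q hQp _ (mul_mem (inv_mem x.2) y.2) h))
        · have hy : (y : ↥C ⧸ O) ∈ Q.map q := by rw [hQmap]; exact y.2
          obtain ⟨x, hx, hxy⟩ := hy
          exact ⟨⟨x, hx⟩, Subtype.ext hxy⟩
      let e : ↥Q ≃* ↥Qb := MulEquiv.ofBijective
        ({ toFun := fun x => ⟨q x, hQmap ▸ mem_map_of_mem q x.2⟩
           map_one' := Subtype.ext (by simp)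
           map_mul' := fun x y => Subtype.ext (by simp) } : ↥Q →* ↥Qb) hQbij
      have hAb : IsPGroup 2 (MulAut ↥Qb) := hAut.of_equiv (MulAut.congr e)
      intro y
      obtain ⟨k, hk⟩ := hAb (MulAut.conjNormal y)
      rw [← map_pow] at hk
      have hyk : y ^ 2 ^ k ∈ Qb := by
        refine hcent (mem_centralizer_iff.mpr fun z hz => ?_)
        have h := congrArg Subtype.val (DFunLike.congr_fun hk ⟨z, hz⟩)
        rw [MulAut.conjNormal_apply, MulAut.one_apply] at h
        exact (mul_inv_eq_iff_eq_mul.mp h).symm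
      obtain ⟨l, hl⟩ := hQb2 ⟨_, hyk⟩
      refine ⟨k + l, ?_⟩
      rw [pow_add, pow_mul]
      exact congrArg Subtype.val hl
    have htop : (P : Subgroup ↥C) ⊔ O = ⊤ := by
      have h1 : (Pq : Subgroup (↥C ⧸ O)) = ⊤ :=
        eq_top_iff.mpr (IsPGroup.le_sylow_of_normal (hC2.to_subgroup ⊤) Pq)
      have h2 : ((P : Subgroup ↥C).map q).comap q = ⊤ := by
        rw [show (P : Subgroup ↥C).map q = ⊤ from h1, comap_top]
      rwa [comap_map_eq, QuotientGroup.ker_mk'] at h2
    have : (P : Subgroup ↥C) ⊔ O ≤ M.subgroupOf C :=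
      sup_le (fun x hx => mem_subgroupOf.mpr (hPM (mem_map_of_mem _ hx))) hOMs
    exact mem_subgroupOf.mp (this (htop ▸ mem_top n))
  · -- `Q₈` does not allow rank three
    exfalso
    set E := A.subgroupOf C with hEd
    have hEP : E ≤ (P : Subgroup ↥C) := hP
    have hE8 : 2 ^ 3 ≤ Nat.card E := by
      rwa [Nat.card_congr (subgroupOfEquivOfLe hAC).toEquiv]
    set X := E ⊔ Q with hX
    have hXP : X ≤ (P : Subgroup ↥C) := sup_le hEP inf_le_left
    have hEN : E ≤ N := by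
      intro x hx
      rw [hNdef, mem_normalizer_iff]
      intro y
      refine ⟨fun hy => ⟨(P : Subgroup ↥C).mul_mem (mul_mem (hEP hx) hy.1) (inv_mem (hEP hx)),
        ‹K.Normal›.conj_mem y hy.2 x⟩, fun hy => ?_⟩
      refine ⟨?_, ?_⟩
      · have h' : x⁻¹ * (x * y * x⁻¹) * x ∈ (P : Subgroup ↥C) :=
          mul_mem (mul_mem (inv_mem (hEP hx)) hy.1) (hEP hx)
        rwa [show x⁻¹ * (x * y * x⁻¹) * x = y by group] at h'
      · have := ‹K.Normal›.conj_mem _ hy.2 x⁻¹
        simpa [mul_assoc] using this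
    have hXN : X ≤ N := sup_le hEN le_normalizer
    let ψ : ↥X →* MulAut ↥Q := φ.comp (inclusion hXN)
    have hk : Nat.card ψ.ker ≤ 2 := by
      rw [← hZ]
      have hmem : ∀ x : ↥ψ.ker, ((x : ↥X) : ↥C) ∈ centralizer (Q : Set ↥C) := by
        intro x
        have h : inclusion hXN (x : ↥X) ∈ φ.ker := x.2
        rw [hφ] at h
        exact h
      have hQmem : ∀ x : ↥ψ.ker, ((x : ↥X) : ↥C) ∈ Q := fun x => ⟨hXP (x : ↥X).2, hker _ (hmem x)⟩
      refine Nat.card_le_card_of_injective (fun x => (⟨⟨_, hQmem x⟩, mem_center_iff.mpr fun y =>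
        Subtype.ext (mem_centralizer_iff.mp (hmem x) y y.2)⟩ : ↥(center ↥Q))) fun x y hxy => ?_
      exact Subtype.ext (Subtype.ext (congrArg (fun z : ↥(center ↥Q) => ((z : ↥Q) : ↥C)) hxy))
    have hr : Nat.card ψ.range ≤ 8 := by
      have hX2 : IsPGroup 2 ↥ψ.range :=
        (P.isPGroup'.to_le hXP).of_surjective ψ.rangeRestrict ψ.rangeRestrict_surjective
      obtain ⟨k, hk'⟩ := hX2.exists_card_eq
      have hd : 2 ^ k ∣ 2 ^ 3 := by
        have h := Subgroup.card_subgroup_dvd_card ψ.range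
        rw [hk', hAut, show (24 : ℕ) = 2 ^ 3 * 3 from rfl] at h
        exact (Nat.Coprime.pow_left k (by norm_num : Nat.Coprime 2 3)).dvd_of_dvd_mul_right h
      rw [hk']
      exact Nat.le_of_dvd (by norm_num) hd
    have hinter : Nat.card ↥(E ⊓ Q) ≤ 2 := by
      rw [← htc2, ← Nat.card_zpowers]
      refine card_le_of_le fun x hx => ?_
      by_cases hx1 : x = 1
      · exact hx1 ▸ one_mem _
      have hxo : orderOf (⟨x, hx.2⟩ : ↥Q) = 2 := by
        refine orderOf_eq_prime (Subtype.ext ?_) (fun h => hx1 (congrArg Subtype.val h))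
        exact Subtype.ext (hA.2 (x : G) hx.1)
      have hto : orderOf (⟨tc, htQ⟩ : ↥Q) = 2 := by rw [← Subgroup.orderOf_coe]; exact htc2
      have := congrArg Subtype.val (huniq _ _ hxo hto)
      exact (show x = tc from this) ▸ mem_zpowers tc
    have hXcard : Nat.card X ≤ 16 := by
      rw [← ψ.ker.card_mul_index, index_ker]
      calc Nat.card ψ.ker * Nat.card ψ.range ≤ 2 * 8 := Nat.mul_le_mul hk hr
        _ = 16 := rfl
    have hge : Nat.card E * Nat.card Q ≤ Nat.card X * Nat.card ↥(E ⊓ Q) := by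
      have h1 : Q.relIndex E ≤ Q.relIndex X :=
        relIndex_le_of_le_right le_sup_left Subgroup.index_ne_zero_of_finite
      have h2 : Q.relIndex E * Nat.card ↥(E ⊓ Q) = Nat.card E := by
        rw [← inf_relIndex_right Q E, inf_comm Q E, mul_comm, relIndex,
          ← Nat.card_congr (subgroupOfEquivOfLe (inf_le_left : E ⊓ Q ≤ E)).toEquiv]
        exact card_mul_index _
      have h3 : Q.relIndex X * Nat.card Q = Nat.card X := by
        rw [mul_comm, relIndex, ← Nat.card_congr (subgroupOfEquivOfLe (le_sup_right : Q ≤ X)).toEquiv]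
        exact card_mul_index _
      rw [← h2, ← h3]
      nlinarith [Nat.zero_le (Nat.card ↥(E ⊓ Q)), Nat.zero_le (Nat.card Q)]
    rw [hQ8] at hge
    have := hge.trans (Nat.mul_le_mul hXcard hinter)
    omega

/-- The core of every involution centraliser is trivial. -/
theorem core_eq_bot (hO : oddCore G = ⊥)
    (hB : ∀ M : Subgroup G, IsStronglyEmbedded M → (oddCore ↥M).map M.subtype ≤ oddCore G)
    {t : G} (ht : orderOf t = 2) : θ t = ⊥ := by
  haveI : Fact (Nat.Prime 2) := ⟨Nat.prime_two⟩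
  obtain ⟨W, hWodd, hWU, hg, hinv⟩ := H.exists_common
  suffices hW : W = ⊥ by
    obtain ⟨R, hR⟩ := (H51.isPGroup_zpowers_of_orderOf (p := 2) ht).exists_le_sylow
    obtain ⟨g, hgR⟩ := MulAction.exists_smul_eq G R S
    have hS : g * t * g⁻¹ ∈ (S : Subgroup G) := by
      rw [← hgR]; exact mem_map_of_mem _ (hR (mem_zpowers t))
    have h := (hinv _ hS ((MulAut.conj g).orderOf_eq t |>.trans ht)).1
    rw [hW, le_bot_iff] at h
    refine (map_eq_bot_iff_of_injective (θ t) (f := (MulAut.conj g).toMonoidHom) (MulAut.conj g).injective).mp ?_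
    exact (H51.centralizerPPrimeCore_map_aut 2 (MulAut.conj g) t).trans h
  obtain ⟨E, hES, hE, hE8⟩ := H.exists_eight_in_sylow
  obtain ⟨e, he, he1⟩ := H29.exists_ne_one_of_one_lt_card (A := E) (by omega)
  obtain ⟨U₀, hU₀E, hU₀, -⟩ := klein_le_of_elem hE (by omega) he he1
  have hU₀S := hU₀E.trans hES
  have hSN : (S : Subgroup G) ≤ normalizer (W : Set G) := fun s hs => hg s U₀ hU₀ hU₀S (by
    rintro _ ⟨u, hu, rfl⟩
    exact mul_mem (mul_mem hs (hU₀S hu)) (inv_mem hs))
  set M := normalizer (W : Set G) with hM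
  have hWM : W ≤ M := le_normalizer
  have hWcore : W ≤ (oddCore ↥M).map M.subtype := by
    intro w hw
    refine ⟨⟨w, hWM hw⟩, ?_, rfl⟩
    refine H51.le_pPrimeCore (N := W.subgroupOf M) (normal_subgroupOf_of_le_normalizer le_rfl) ?_
      (mem_subgroupOf.mpr hw)
    rw [Nat.card_congr (subgroupOfEquivOfLe hWM).toEquiv]
    exact Nat.coprime_two_right.mpr hWodd
  by_cases hMt : M = ⊤
  · haveI : W.Normal := normalizer_eq_top_iff.mp hMt
    rw [eq_bot_iff, ← hO]
    exact H51.le_pPrimeCore inferInstance (Nat.coprime_two_right.mpr hWodd)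
  have hconjS : ∀ s ∈ M, orderOf s = 2 → ∃ m ∈ M, m * s * m⁻¹ ∈ (S : Subgroup G) := by
    intro s hs hs2
    let S' : Sylow 2 ↥M := S.subtype hSN
    obtain ⟨R, hR⟩ := (H51.isPGroup_zpowers_of_orderOf (p := 2) (x := (⟨s, hs⟩ : ↥M))
      (by rw [← Subgroup.orderOf_coe]; exact hs2)).exists_le_sylow
    obtain ⟨m, hm⟩ := MulAction.exists_smul_eq ↥M R S'
    refine ⟨m, m.2, ?_⟩
    have : m * ⟨s, hs⟩ * m⁻¹ ∈ (S' : Subgroup ↥M) := by
      rw [← hm]; exact mem_map_of_mem _ (hR (mem_zpowers _))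
    exact this
  have hCM : ∀ s ∈ M, orderOf s = 2 → centralizer ({s} : Set G) ≤ M := by
    intro s hs hs2
    obtain ⟨m, hm, hms⟩ := hconjS s hs hs2
    obtain ⟨hW', U, A, htU, hU, hUA, hAS, hA, hA8⟩ :=
      hinv _ hms ((MulAut.conj m).orderOf_eq s |>.trans hs2)
    have h := H.centralizer_le hg hSN ((MulAut.conj m).orderOf_eq s |>.trans hs2) htU hU hUA hAS hA hA8 hW'
    intro c hc
    have h1 : m * c * m⁻¹ ∈ M := h (mem_centralizer_singleton_iff.mpr (by
      calc m * c * m⁻¹ * (m * s * m⁻¹) = m * (c * s) * m⁻¹ := by group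
        _ = m * (s * c) * m⁻¹ := by rw [mem_centralizer_singleton_iff.mp hc]
        _ = m * s * m⁻¹ * (m * c * m⁻¹) := by group))
    have h2 := M.mul_mem (M.mul_mem (M.inv_mem hm) h1) hm
    rwa [show m⁻¹ * (m * c * m⁻¹) * m = c by group] at h2
  have heven : Even (Nat.card ↥M) := by
    rw [even_iff_two_dvd, ← H.order_two hE he he1]
    exact orderOf_dvd_natCard M (hSN (hES he))
  have hSE : IsStronglyEmbedded M := by
    rw [H28.isStronglyEmbedded_iff_mem hMt heven]
    intro r hr hr2 g hgr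
    have hr2' : orderOf (g⁻¹ * r * g) = 2 := by
      have h := (MulAut.conj g⁻¹).orderOf_eq r
      rw [MulAut.conj_apply, inv_inv] at h
      exact h.trans hr2
    obtain ⟨m, hm, hms⟩ := hconjS _ hgr hr2'
    obtain ⟨-, U, A, htU, hU, hUA, hAS, -, -⟩ :=
      hinv _ hms ((MulAut.conj m).orderOf_eq _ |>.trans hr2')
    set k := g * m⁻¹ with hk
    -- `k` carries `U` into `C(r)`
    have hkU : ∀ u ∈ U, k * u * k⁻¹ ∈ M := by
      intro u hu
      refine hCM r hr hr2 (mem_centralizer_singleton_iff.mpr ?_)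
      have hc := H29.comm_of_mem_kleinFour (U := U) hu htU
      calc k * u * k⁻¹ * r = k * (u * (m * (g⁻¹ * r * g) * m⁻¹)) * k⁻¹ := by rw [hk]; group
        _ = k * ((m * (g⁻¹ * r * g) * m⁻¹) * u) * k⁻¹ := by rw [hc]
        _ = r * (k * u * k⁻¹) := by rw [hk]; group
    -- and some element of `M` carries the image into `S`
    let S' : Sylow 2 ↥M := S.subtype hSN
    let V : Subgroup ↥M := (U.map (MulAut.conj k).toMonoidHom).subgroupOf M
    have hV : IsPGroup 2 ↥V :=
      ((H52.elem_isPGroup (p := 2) (elem_of_klein hU)).map _).comap_subtype (K := M)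
    obtain ⟨R, hR⟩ := hV.exists_le_sylow
    obtain ⟨l, hl⟩ := MulAction.exists_smul_eq ↥M R S'
    have hlk : (l : G) * k ∈ M := by
      refine hg _ U hU (hUA.trans hAS) ?_
      rintro _ ⟨u, hu, rfl⟩
      have hmem : (⟨k * u * k⁻¹, hkU u hu⟩ : ↥M) ∈ V := mem_subgroupOf.mpr ⟨u, hu, rfl⟩
      have h3 : l * ⟨k * u * k⁻¹, hkU u hu⟩ * l⁻¹ ∈ (S' : Subgroup ↥M) := by
        rw [← hl]; exact mem_map_of_mem _ (hR hmem)
      have h4 : (l : G) * (k * u * k⁻¹) * (l : G)⁻¹ ∈ (S : Subgroup G) := h3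
      simpa [mul_assoc] using h4
    have h5 := M.mul_mem (M.inv_mem l.2) hlk
    rw [inv_mul_cancel_left, hk] at h5
    simpa using M.mul_mem h5 hm
  rw [eq_bot_iff, ← hO]
  exact hWcore.trans (hB M hSE)

end Hyp

end Cfsg.Agent.H83.CoreKilling
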